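import Mathlib

/-!
# The action on the cosets of a subgroup as a permutation group on `Fin N`
-/

namespace Cfsg.Agent.Lib.TC.D.HNA.Act

/-- A simple group with a subgroup of index `N > 1` is a transitive permutation group of degree
`N`, the subgroup being the stabilizer of the point `0`. -/
theorem perm_real {G : Type*} [Group G] [Finite G] [IsSimpleGroup G] (A : Subgroup G) {N : ℕ}
    [NeZero N] (hN : Nat.card G = N * Nat.card A) (hN1 : 1 < N) :
    ∃ H : Subgroup (Equiv.Perm (Fin N)), Nonempty (G ≃* H) ∧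
      MulAction.IsPretransitive H (Fin N) ∧
      Nonempty (MulAction.stabilizer H (0 : Fin N) ≃* A) := by
  classical
  have hA0 : Nat.card A ≠ 0 := Nat.card_pos.ne'
  have hidx : A.index = N := by
    have h := Subgroup.index_mul_card A
    rw [hN] at h
    exact Nat.eq_of_mul_eq_mul_right (Nat.pos_of_ne_zero hA0) h
  let e0 : G ⧸ A ≃ Fin N := Finite.equivFinOfCardEq hidx
  let o : G ⧸ A := ((1 : G) : G ⧸ A)
  let e : G ⧸ A ≃ Fin N := e0.trans (Equiv.swap (e0 o) 0)
  have heo : e o = 0 := by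
    show Equiv.swap (e0 o) 0 (e0 o) = 0
    exact Equiv.swap_apply_left _ _
  let ψ : G →* Equiv.Perm (Fin N) :=
    (e.permCongrHom).toMonoidHom.comp (MulAction.toPermHom G (G ⧸ A))
  have hψ : ∀ g x, ψ g x = e (g • e.symm x) := fun g x => rfl
  have hψ0 : ∀ g, ψ g 0 = 0 ↔ g ∈ A := by
    intro g
    have h1 : e.symm 0 = o := by
      rw [← heo, Equiv.symm_apply_apply]
    rw [hψ, h1, ← heo, e.apply_eq_iff_eq]
    have h2 : g • o = ((g : G) : G ⧸ A) := by
      show g • ((1 : G) : G ⧸ A) = _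
      rw [MulAction.Quotient.smul_coe, smul_eq_mul, mul_one]
    rw [h2]
    show ((g : G) : G ⧸ A) = ((1 : G) : G ⧸ A) ↔ _
    rw [eq_comm, QuotientGroup.eq, inv_one, one_mul]
  have hinj : Function.Injective ψ := by
    rcases IsSimpleGroup.eq_bot_or_eq_top_of_normal ψ.ker ψ.normal_ker with h | h
    · exact (MonoidHom.ker_eq_bot_iff ψ).1 h
    · exfalso
      have htop : A = ⊤ := by
        rw [eq_top_iff]
        intro g _
        have h1 : g ∈ ψ.ker := by
          rw [h]
          exact Subgroup.mem_top _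
        have h2 : ψ g = 1 := h1
        exact (hψ0 g).1 (by rw [h2]; rfl)
      rw [htop, Subgroup.index_top] at hidx
      omega
  refine ⟨ψ.range, ⟨MonoidHom.ofInjective hinj⟩, ?_, ?_⟩
  · refine ⟨fun a b => ?_⟩
    obtain ⟨ga, hga⟩ := QuotientGroup.mk_surjective (e.symm a)
    obtain ⟨gb, hgb⟩ := QuotientGroup.mk_surjective (e.symm b)
    refine ⟨⟨ψ (gb * ga⁻¹), ⟨_, rfl⟩⟩, ?_⟩
    show ψ (gb * ga⁻¹) a = b
    rw [hψ, ← hga, MulAction.Quotient.smul_coe, smul_eq_mul, inv_mul_cancel_right]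
    have : ((gb : G) : G ⧸ A) = e.symm b := hgb
    rw [this, Equiv.apply_symm_apply]
  · let θ : A →* MulAction.stabilizer ψ.range (0 : Fin N) :=
      { toFun := fun a => ⟨⟨ψ a.1, ⟨a.1, rfl⟩⟩, (hψ0 a.1).2 a.2⟩
        map_one' := by
          apply Subtype.ext
          apply Subtype.ext
          exact map_one ψ
        map_mul' := fun a b => by
          apply Subtype.ext
          apply Subtype.ext
          exact map_mul ψ a.1 b.1 }
    have hθ : Function.Bijective θ := by
      constructor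
      · intro a b hab
        have h1 : ψ a.1 = ψ b.1 := congrArg (fun x => x.1.1) hab
        exact Subtype.ext (hinj h1)
      · rintro ⟨⟨_, ⟨g, rfl⟩⟩, hg⟩
        have h1 : ψ g 0 = 0 := hg
        exact ⟨⟨g, (hψ0 g).1 h1⟩, rfl⟩
    exact ⟨(MulEquiv.ofBijective θ hθ).symm⟩

end Cfsg.Agent.Lib.TC.D.HNA.Act
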