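import Cfsg.Agent.Lib.TC.D.HNA.Sub
import Cfsg.Agent.Lib.TC.D.HNA.Act
import Cfsg.Prelude.Def_Sporadic

/-!
# The Harada–Norton group as a transitive permutation group of degree 1140000
-/

namespace Cfsg.Agent.Lib.TC.D.HNA.Real

open Cfsg.Agent.Lib.TC.D.HNO.Tab

/-- The permutation group of degree 1140000. -/
theorem realization (hgood : pt.Good Cfsg.Agent.Lib.TC.G.HN.rels)
    (hs : IsSimpleGroup (PresentedGroup Cfsg.Agent.Lib.TC.G.HN.Rel))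
    (hc : Nat.card (PresentedGroup Cfsg.Agent.Lib.TC.G.HN.Rel) = 273030912000000) :
    ∃ H : Subgroup (Equiv.Perm (Fin 1140000)), Cfsg.IsHN H ∧
      MulAction.IsPretransitive H (Fin 1140000) ∧
      Nonempty (MulAction.stabilizer H (0 : Fin 1140000) ≃* alternatingGroup (Fin 12)) := by
  obtain ⟨A, hA, ⟨iso⟩⟩ := Cfsg.Agent.Lib.TC.D.HNA.Sub.exists_sub hgood hs hc
  have hfin : Finite (PresentedGroup Cfsg.Agent.Lib.TC.G.HN.Rel) :=
    Nat.finite_of_card_ne_zero (by rw [hc]; norm_num)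
  obtain ⟨H, ⟨i1⟩, h2, ⟨i3⟩⟩ := Cfsg.Agent.Lib.TC.D.HNA.Act.perm_real A (N := 1140000)
    (by rw [hc, hA]) (by norm_num)
  refine ⟨H, ⟨i1.symm.isSimpleGroup, ?_⟩, h2, ⟨i3.trans iso⟩⟩
  rw [← Nat.card_congr i1.toEquiv, hc]

end Cfsg.Agent.Lib.TC.D.HNA.Real
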