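import Cfsg.Agent.Lib.TC.D.HNA.W

/-!
# A subgroup of the presented group isomorphic to the alternating group of degree 12

The ten words satisfy the relations of the presentation of the alternating group of degree 12.
The presented group is simple, so that the homomorphism from the alternating group is injective.
-/

namespace Cfsg.Agent.Lib.TC.D.HNA.Sub

open Cfsg.Agent.Lib.TC.Core Cfsg.Agent.Lib.TC.Enc Cfsg.Agent.Lib.TC.Pres Cfsg.Agent.Lib.TC.Perm
  Cfsg.Agent.Lib.TC.Main Cfsg.Agent.Lib.TC.Chain Cfsg.Agent.Lib.TC.Chain.PermLev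
  Cfsg.Agent.Lib.TC.Iso Cfsg.Agent.Lib.TC.D.HNO.Tab Cfsg.Agent.Lib.TC.D.HNL
  Cfsg.Agent.Lib.TC.D.HNA.W

set_option maxRecDepth 100000

/-- The value of a product of products. -/
theorem prodA_flatMap {Γ : Type*} [Group Γ] (E : Nat → Γ) (W : Nat → List Nat) (l : List Nat) :
    prodA (fun c => prodA E (W c)) l = prodA E (l.flatMap W) := by
  induction l with
  | nil => rfl
  | cons z l ih =>
    rw [prodA_cons, List.flatMap_cons, prodA_append, ih]

local notation "GG" => PresentedGroup Cfsg.Agent.Lib.TC.G.HN.Rel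
local notation "ee" => Cfsg.Agent.Lib.TC.G.HN.K.E Cfsg.Agent.Lib.TC.G.HN.Rel

/-- The subgroup. -/
theorem exists_sub (hgood : pt.Good Cfsg.Agent.Lib.TC.G.HN.rels)
    (hs : IsSimpleGroup GG) (hc : Nat.card GG = 273030912000000) :
    ∃ A : Subgroup GG, Nat.card A = 239500800 ∧ Nonempty (A ≃* alternatingGroup (Fin 12)) := by
  have hk : pt.k = Cfsg.Agent.Lib.TC.G.HN.K.k := by decide
  obtain ⟨φ, hφ⟩ := exists_hom Cfsg.Agent.Lib.TC.G.HN.valid hk (fun _ => rfl) hgood Cfsg.Agent.Lib.TC.G.HN.hR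
  have hval : ∀ l : List Nat, (∀ z ∈ l, z < pt.k) → ∀ i : Fin pt.n,
      (φ (prodA ee l) i).1 = pt.val l i.1 :=
    fun l hl i => phi_prodA_apply hk hgood φ hφ l (fun z hz => by rw [← hk]; exact hl z hz) i
  have hG0 : Nat.card GG ≠ 0 := by
    rw [hc]
    norm_num
  have hfin : Finite GG := Nat.finite_of_card_ne_zero hG0
  have htr : ∀ i : Fin pt.n, ∃ g, φ g 0 = i := by
    intro i
    obtain ⟨l, hl, hv⟩ := hgood.trans i.1 i.2
    refine ⟨prodA ee l, Fin.ext ?_⟩
    rw [hval l hl]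
    exact hv
  have hr := card_range_ge hval htr C0.cl.levs Simple.hlev0
  rw [Simple.hprod0] at hr
  have hN : (273030912000000 : Nat) ≤ pt.n * 177408000 := by decide +kernel
  obtain ⟨_, hinj⟩ := card_eq_of_bounds φ hG0 (le_of_eq hc) (le_trans hN hr)
  have hle : Nat.card φ.range ≤ pt.n * prodM C0.cl.levs := by
    have h5 := Nat.card_le_card_of_surjective _ φ.rangeRestrict_surjective
    rw [hc] at h5
    rw [Simple.hprod0]
    exact le_trans h5 hN
  -- the relators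
  have hrel0 : ∀ l ∈ Cfsg.Agent.Lib.TC.G.PA12.rels, prodA ee (relW l) = 1 := by
    intro l hl
    apply hinj
    rw [map_one]
    apply eq_one_of_fix_base (E := ee) hval C0.cl.levs Simple.hlev0 hfin hle (by decide) htr _ ⟨_, rfl⟩
    intro b hb'
    apply Fin.ext
    have hz : ∀ z ∈ relW l, z < pt.k := by
      have h1 := List.all_eq_true.1 hkR l hl
      intro z hz
      exact of_decide_eq_true (List.all_eq_true.1 h1 z hz)
    rw [hval _ hz b]
    exact fixAll_spec (List.all_eq_true.1 hfixR l hl) b.1 hb'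
  let F : Nat → GG := fun c => prodA ee (WW c)
  have hiv : ∀ i, i < 10 → prodA ee (invW Cfsg.Agent.Lib.TC.G.HN.invF (xw.getD i [])) =
      (prodA ee (xw.getD i []))⁻¹ := by
    intro i hi
    apply prodA_invW
    intro z hz
    exact (Cols.E_inv Cfsg.Agent.Lib.TC.G.HN.valid z (hkx i hi z hz)).2
  have hinv : ∀ c, c < Cfsg.Agent.Lib.TC.G.PA12.K.k →
      F (Cfsg.Agent.Lib.TC.G.PA12.K.inv c) = (F c)⁻¹ := by
    intro c hc'
    have hc'' : c < 20 := hc'
    show prodA ee (WW (Cfsg.Agent.Lib.TC.G.PA12.invF c)) = (prodA ee (WW c))⁻¹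
    rcases Nat.mod_two_eq_zero_or_one c with h2 | h2
    · have h3 : Cfsg.Agent.Lib.TC.G.PA12.invF c = c + 1 := by
        simp [Cfsg.Agent.Lib.TC.G.PA12.invF, h2]
      have h4 : (c + 1) / 2 = c / 2 := by omega
      have h5 : (c + 1) % 2 ≠ 0 := by omega
      rw [h3, WW, WW, if_neg h5, if_pos h2, h4]
      exact hiv _ (by omega)
    · have h3 : Cfsg.Agent.Lib.TC.G.PA12.invF c = c - 1 := by
        simp [Cfsg.Agent.Lib.TC.G.PA12.invF, h2]
      have h4 : (c - 1) / 2 = c / 2 := by omega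
      have h5 : (c - 1) % 2 = 0 := by omega
      have h6 : c % 2 ≠ 0 := by omega
      rw [h3, WW, WW, if_pos h5, if_neg h6, h4, hiv _ (by omega), inv_inv]
  have hrel : ∀ l ∈ Cfsg.Agent.Lib.TC.G.PA12.rels, prodA F l = 1 := by
    intro l hl
    rw [prodA_flatMap ee WW l]
    exact hrel0 l hl
  obtain ⟨Λ, hΛ⟩ := exists_hom_of_letters Cfsg.Agent.Lib.TC.G.PA12.valid Cfsg.Agent.Lib.TC.G.PA12.hR F hinv hrel
  obtain ⟨hcP, ⟨isoP⟩⟩ := Cfsg.Agent.Lib.TC.D.PA12C.Main.iso_alt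
  have hsA : IsSimpleGroup (alternatingGroup (Fin 12)) :=
    alternatingGroup.isSimpleGroup (by rw [Nat.card_fin]; norm_num)
  have hsP : IsSimpleGroup (PresentedGroup Cfsg.Agent.Lib.TC.G.PA12.Rel) := isoP.isSimpleGroup
  have hinjΛ : Function.Injective Λ := by
    rcases IsSimpleGroup.eq_bot_or_eq_top_of_normal Λ.ker Λ.normal_ker with h | h
    · exact (MonoidHom.ker_eq_bot_iff Λ).1 h
    · exfalso
      have h1 : Cfsg.Agent.Lib.TC.G.PA12.K.E Cfsg.Agent.Lib.TC.G.PA12.Rel 0 ∈ Λ.ker := by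
        rw [h]
        exact Subgroup.mem_top _
      have h2 : Λ (Cfsg.Agent.Lib.TC.G.PA12.K.E Cfsg.Agent.Lib.TC.G.PA12.Rel 0) = 1 := h1
      rw [hΛ 0 (by decide)] at h2
      have h3 : F 0 = prodA ee (xw.getD 0 []) := rfl
      rw [h3] at h2
      have hz : ∀ z ∈ xw.getD 0 [], z < pt.k := hkx 0 (by decide)
      have h4 := hval _ hz ⟨9, by decide⟩
      rw [h2, map_one] at h4
      exact hmove h4.symm
  refine ⟨Λ.range, ?_, ⟨(MonoidHom.ofInjective hinjΛ).symm.trans isoP⟩⟩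
  rw [← Nat.card_congr (MonoidHom.ofInjective hinjΛ).toEquiv, hcP]

end Cfsg.Agent.Lib.TC.D.HNA.Sub
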